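import Mathlib
import Cfsg.Agent.Spor.J3.DataK

/-! Generated by tools/nm: the stabiliser of a line. -/

set_option autoImplicit false
set_option maxRecDepth 100000
set_option exponentiation.threshold 100000

namespace Cfsg.Agent.Spor.MJ3

open Cfsg.Agent.Spor Cfsg.Agent.Spor.NM Cfsg.Agent.Spor.NM.F4x9

theorem K_s_ok : tabOK mul one dc 45 K_s = true := by decide +kernel

theorem K_g_ok : tabOK mul one (tabEl K_s) 5 K_g = true := by decide +kernel

theorem K0_ok : band (tabOK mul one gK 3 K0_t) (band (allLt 3 (covOK1 mul gK (tabEl K0_t) K0_c (53 + 1)))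
    (band (incr 53 (tabEl K0_t)) (band (blt 27 (53 + 1)) (Nat.beq (tabEl K0_t 27) one)))) = true := by decide +kernel

theorem K1_ok : band (tabOK mul one gK 4 K1_t) (band (allLt 4 (covOK mul gK (tabEl K1_t) (tabEl K0_t) K1_c (119 + 1)))
    (band (conjOK mul one ent (tabEl K1_t) K1_i.get K1_h 119) (band (blt 85 (119 + 1)) (band (Nat.beq (tabEl K1_t 85) one)
    (band (invChk mul one ent K1_h K1_hi) (commOK mul gK K1_h 3)))))) = true := by decide +kernel

theorem KD_ok1 : band (tabOK mul one gK (4 + 1) KD_X) (band (tabOK mul one gK (4 + 1) KD_Y)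
    (band (allLt 4 (covOK mul gK (tabEl KD_Y) (elQ mul (tabEl K1_t) (119 + 1) (tabEl K0_t)) KD_cY 80)) (band (blt 0 80) (band (Nat.beq (tabEl KD_Y 0) (gK 4))
    (band (blt 0 28) (Nat.beq (tabEl KD_X 0) one)))))) = true := by decide +kernel

theorem KD_d0 : allRange 0 18 (dcOK mul (tabEl KD_X) (tabEl KD_Y) (elQ mul (tabEl K1_t) (119 + 1) (tabEl K0_t)) KD_cX 28 80 6480) = true := by decide +kernel

theorem KD_d1 : allRange 18 10 (dcOK mul (tabEl KD_X) (tabEl KD_Y) (elQ mul (tabEl K1_t) (119 + 1) (tabEl K0_t)) KD_cX 28 80 6480) = true := by decide +kernel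

theorem KD_okm : allLt 28 (maxOK mul (tabEl KD_X) (elQ mul (tabEl K1_t) (119 + 1) (tabEl K0_t)) (gK 4) KD_m) = true := by decide +kernel

theorem KD_ok2 : ∀ r < 28, (dcOK mul (tabEl KD_X) (tabEl KD_Y) (elQ mul (tabEl K1_t) (119 + 1) (tabEl K0_t)) KD_cX 28 80 6480) r = true :=
  (range_append (a := 18) (b := 28) 10 (range_append (a := 0) (b := 18) 18 (fun _ h => absurd h (Nat.not_lt_zero _)) KD_d0) KD_d1)

theorem Km_ok : allLt 9 (fun x => memDC mul (tabEl KD_X) (elQ mul (tabEl K1_t) (119 + 1) (tabEl K0_t)) 28 6480 (Km x) (gC x)) = true := by decide +kernel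

end Cfsg.Agent.Spor.MJ3
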