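import Mathlib
import Cfsg.Agent.Spor.J3.DataP

/-! Generated by tools/nm: the stabiliser of a line. -/

set_option autoImplicit false
set_option maxRecDepth 100000
set_option exponentiation.threshold 100000

namespace Cfsg.Agent.Spor.MJ3

open Cfsg.Agent.Spor Cfsg.Agent.Spor.NM Cfsg.Agent.Spor.NM.F4x9

theorem P_s_ok : tabOK mul one dc 45 P_s = true := by decide +kernel

theorem P_g_ok : tabOK mul one (tabEl P_s) 3 P_g = true := by decide +kernel

theorem P0_ok : band (tabOK mul one gP 3 P0_t) (band (allLt 3 (covOK1 mul gP (tabEl P0_t) P0_c (71 + 1)))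
    (band (incr 71 (tabEl P0_t)) (band (blt 54 (71 + 1)) (Nat.beq (tabEl P0_t 54) one)))) = true := by decide +kernel

theorem P1_ok : band (tabOK mul one gP 5 P1_t) (band (allLt 5 (covOK mul gP (tabEl P1_t) (tabEl P0_t) P1_c (47 + 1)))
    (band (conjOK mul one ent (tabEl P1_t) P1_i.get P1_h 47) (band (blt 37 (47 + 1)) (band (Nat.beq (tabEl P1_t 37) one)
    (band (invChk mul one ent P1_h P1_hi) (commOK mul gP P1_h 3)))))) = true := by decide +kernel

theorem PD_ok1 : band (tabOK mul one gP (5 + 1) PD_X) (band (tabOK mul one gP (5 + 1) PD_Y)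
    (band (allLt 5 (covOK mul gP (tabEl PD_Y) (elQ mul (tabEl P1_t) (47 + 1) (tabEl P0_t)) PD_cY 8)) (band (blt 0 8) (band (Nat.beq (tabEl PD_Y 0) (gP 5))
    (band (blt 0 57) (Nat.beq (tabEl PD_X 0) one)))))) = true := by decide +kernel

theorem PD_d0 : allRange 0 57 (dcOK mul (tabEl PD_X) (tabEl PD_Y) (elQ mul (tabEl P1_t) (47 + 1) (tabEl P0_t)) PD_cX 57 8 3456) = true := by decide +kernel

theorem PD_okm : allLt 57 (maxOK mul (tabEl PD_X) (elQ mul (tabEl P1_t) (47 + 1) (tabEl P0_t)) (gP 5) PD_m) = true := by decide +kernel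

theorem PD_ok2 : ∀ r < 57, (dcOK mul (tabEl PD_X) (tabEl PD_Y) (elQ mul (tabEl P1_t) (47 + 1) (tabEl P0_t)) PD_cX 57 8 3456) r = true :=
  (range_append (a := 0) (b := 57) 57 (fun _ h => absurd h (Nat.not_lt_zero _)) PD_d0)

theorem Pm_ok : allLt 9 (fun x => memDC mul (tabEl PD_X) (elQ mul (tabEl P1_t) (47 + 1) (tabEl P0_t)) 57 3456 (Pm x) (gC x)) = true := by decide +kernel

end Cfsg.Agent.Spor.MJ3
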