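import Mathlib
import Cfsg.Prelude.Def_Classical
import Cfsg.Agent.Spor.J3.Main
import Cfsg.Agent.Spor.J3.CheckK
import Cfsg.Agent.Spor.J3.CheckP

/-!
The triple cover of the third Janko group as a unitary group: orbits on lines.
-/

set_option autoImplicit false
set_option linter.unusedSectionVars false

namespace Cfsg.Agent.Spor.MJ3

open Cfsg.Agent.Spor Cfsg.Agent.Spor.NM Cfsg.Agent.Spor.NM.F4x9 Cfsg.Spor Matrix

/-- The stabiliser of the line through `v`. -/
def lineStab {ι F : Type*} [Fintype ι] [DecidableEq ι] [Field F] (v : ι → F) : Subgroup (GL ι F) where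
  carrier := {g | ∃ c : F, c ≠ 0 ∧ (g : Matrix ι ι F) *ᵥ v = c • v}
  one_mem' := ⟨1, one_ne_zero, by simp⟩
  mul_mem' := by
    rintro a b ⟨c, hc, h1⟩ ⟨d, hd, h2⟩
    refine ⟨d * c, mul_ne_zero hd hc, ?_⟩
    rw [Units.val_mul, ← mulVec_mulVec, h2, mulVec_smul, h1, smul_smul]
  inv_mem' := by
    rintro a ⟨c, hc, h⟩
    refine ⟨c⁻¹, inv_ne_zero hc, ?_⟩
    rw [eq_inv_smul_iff₀ hc, ← mulVec_smul, ← h, mulVec_mulVec, Units.inv_mul, one_mulVec]

/-- The stabiliser of the vector `v`. -/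
def vecStab {ι F : Type*} [Fintype ι] [DecidableEq ι] [Field F] (v : ι → F) : Subgroup (GL ι F) where
  carrier := {g | (g : Matrix ι ι F) *ᵥ v = v}
  one_mem' := by simp
  mul_mem' := by
    intro a b (h1 : _ = _) (h2 : _ = _)
    show _ = _
    rw [Units.val_mul, ← mulVec_mulVec, h2, h1]
  inv_mem' := by
    intro a (h : _ = _)
    show _ = _
    conv_lhs => rw [← h, mulVec_mulVec, Units.inv_mul, one_mulVec]

theorem mulVec_eq_iff {ι F : Type*} [Fintype ι] [DecidableEq ι] [Field F] (a b : GL ι F) (v w : ι → F) :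
    ((a⁻¹ * b : GL ι F) : Matrix ι ι F) *ᵥ v = w ↔ (b : Matrix ι ι F) *ᵥ v = (a : Matrix ι ι F) *ᵥ w := by
  rw [Units.val_mul, ← mulVec_mulVec]
  constructor
  · rintro rfl
    rw [mulVec_mulVec, Units.mul_inv, one_mulVec]
  · intro h
    rw [h, mulVec_mulVec, Units.inv_mul, one_mulVec]

theorem span_eq_iff {ι F : Type*} [Fintype ι] [DecidableEq ι] [Field F] (a b : GL ι F) (v : ι → F) :
    (F ∙ ((a : Matrix ι ι F) *ᵥ v)) = (F ∙ ((b : Matrix ι ι F) *ᵥ v)) ↔ a⁻¹ * b ∈ lineStab v := by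
  rw [Submodule.span_singleton_eq_span_singleton]
  constructor
  · rintro ⟨c, h⟩
    exact ⟨c, c.ne_zero, (mulVec_eq_iff _ _ _ _).2 (by rw [← h, mulVec_smul]; rfl)⟩
  · rintro ⟨c, hc, h⟩
    exact ⟨Units.mk0 c hc, by rw [(mulVec_eq_iff _ _ _ _).1 h, mulVec_smul]; rfl⟩

/-- The conjugate of an entry. -/
def cj4 (a : ℕ) : ℕ := if a = 32 then 33 else if a = 33 then 32 else a

/-- The conjugate transpose. -/
def ctr (a : ℕ) : ℕ := pk 15 (fun t => cj4 (fld 15 a (9 * (t % 9) + t / 9))) 81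

/-- The matrix with code `a` is unitary. -/
noncomputable def uniOK (a : ℕ) : Bool := force (ctr a) fun b => band (invChk mul one ent b a)
  (allLt 9 fun i => allLt 9 fun j => Nat.beq (fld 15 b (9 * i + j)) (cj4 (fld 15 a (9 * j + i))))

/-- The first columns agree. -/
noncomputable def colEq (a b : ℕ) : Bool :=
  force a fun a => force b fun b => allLt 9 fun i => Nat.beq (fld 15 a (9 * i)) (fld 15 b (9 * i))

/-- The matrix `a` multiplies the first column of `N` by a scalar. -/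
noncomputable def fixOK (N a : ℕ) : Bool := !allLt 3 fun k => !colEq (mul a N) (mul (powN mul one (gC 0) k) N)

/-- An isotropic vector as a first column. -/
def N1 : ℕ := 2 ^ (15 * 27) + 2 ^ (15 * 54)

variable (F : Type*) [Field F] [Fintype F] [hF : Fact (Fintype.card F = 4)] (ω : F) [hω : Fact (ω ^ 2 + ω + 1 = 0)]

include hω in
theorem w_cube : ω ^ 3 = 1 := by linear_combination (ω - 1) * hω.1

include hω in
theorem w_ne : ω ≠ 0 := fun h => by simpa [h] using w_cube F ω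

include hF in
theorem cube_eq {c : F} (h : c ≠ 0) : c ^ 3 = 1 := by
  have := FiniteField.pow_card_sub_one_eq_one c h
  rwa [hF.1] at this

include hF hω in
theorem exists_pow {c : F} (h : c ≠ 0) : ∃ k < 3, c = ω ^ k := by
  have h1 : (c - 1) * ((c - ω) * (c - ω ^ 2)) = 0 := by
    linear_combination cube_eq F h + (c - 1) * w_cube F ω - (c - 1) * c * hω.1
  rcases mul_eq_zero.1 h1 with h2 | h2
  · exact ⟨0, by norm_num, by rw [pow_zero]; exact sub_eq_zero.1 h2⟩
  rcases mul_eq_zero.1 h2 with h2 | h2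
  · exact ⟨1, by norm_num, by rw [pow_one]; exact sub_eq_zero.1 h2⟩
  · exact ⟨2, by norm_num, sub_eq_zero.1 h2⟩

include hF hω in
theorem phi_cj {a : ℕ} (h : ok4 a) : phi4 ω (cj4 a) = phi4 ω a ^ 2 := by
  rcases h with rfl | rfl | rfl | rfl
  · simp [cj4, phi4]
  · simp [cj4, phi4]
  · rw [phi_32]; exact phi_33 F ω
  · rw [phi_33]
    refine (phi_32 F ω).trans ?_
    linear_combination (-ω) * w_cube F ω

/-- The Hermitian form. -/
def herm (u v : F9 → F) : F := ∑ i, u i * v i ^ 2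

/-- The unitary group. -/
def UG : Subgroup (GL F9 F) := preserving (Units.coeHom (Matrix F9 F9 F)) (herm F)

theorem mem_UG {a : ℕ} (h : uniOK a = true) : (M F ω).elt a ∈ UG F := by
  unfold uniOK at h
  rw [force_eq] at h
  generalize ctr a = b at h
  simp only [band_iff, allLt_iff, nbeq_iff] at h
  obtain ⟨h1, h2, h3⟩ := Model.invChk_sound (M := M F ω) h.1
  have h4 : dm4 F ω b * dm4 F ω a = 1 := by
    have e1 : ((M F ω).elt b : Matrix F9 F9 F) = dm4 F ω b := (S F ω).coe_elt e9 h1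
    have e2 : ((M F ω).elt a : Matrix F9 F9 F) = dm4 F ω a := (S F ω).coe_elt e9 h2
    rw [← e1, ← e2, h3, Units.mul_inv]
  have h5 : ∀ i j, dm4 F ω b i j = dm4 F ω a j i ^ 2 := fun i j => by
    rw [dm4, dm4, dec, dec, of_apply, of_apply, h.2 _ (e9 i).2 _ (e9 j).2]
    exact phi_cj F ω (h2.1.2 _ (idx_lt (e9 j).2 (e9 i).2))
  have : CharP F 2 := CharTwo.of_one_ne_zero_of_two_eq_zero one_ne_zero (two_eq F)
  intro u v
  have h6 : Units.coeHom _ ((M F ω).elt a) = dm4 F ω a := (S F ω).coe_elt e9 h2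
  rw [h6]
  have h7 : ∀ z, (dm4 F ω a *ᵥ v) z ^ 2 = ((fun i => v i ^ 2) ᵥ* dm4 F ω b) z := fun z => by
    simp only [mulVec, vecMul, dotProduct, CharTwo.sum_sq, h5, mul_pow, mul_comm]
  have h8 : herm F (dm4 F ω a *ᵥ u) (dm4 F ω a *ᵥ v) =
      ((fun i => v i ^ 2) ᵥ* dm4 F ω b) ⬝ᵥ (dm4 F ω a *ᵥ u) := by
    simp only [herm, h7, dotProduct, mul_comm]
  rw [h8, dotProduct_mulVec, vecMul_vecMul, h4, vecMul_one]
  simp only [herm, dotProduct, mul_comm]

theorem le_UG : threeJ3 F ω ≤ UG F := by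
  have h : allLt 9 (fun x => uniOK (gC x)) = true := by decide +kernel
  rw [← gen9]
  exact genLt_le fun x hx => mem_UG F ω ((allLt_iff _ _).1 h x hx)

/-- The first column of the matrix with code `N`. -/
def col (N : ℕ) : F9 → F := fun i => dm4 F ω N i 0

theorem mulVec_col {a N : ℕ} (ha : (M F ω).V a) (hN : Ent 15 (9 * 9) ok4 N) :
    ((M F ω).elt a : Matrix F9 F9 F) *ᵥ col F ω N = col F ω (mul a N) := by
  erw [(S F ω).coe_elt e9 ha]
  funext i
  rw [col, dm4, (S F ω).dec_mul e9 ha.1 hN]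
  rfl

theorem w_mulVec (k : ℕ) (v : F9 → F) : (((M F ω).elt (gC 0) ^ k : GL F9 F) : Matrix F9 F9 F) *ᵥ v = ω ^ k • v := by
  have h : ((M F ω).elt (gC 0) : Matrix F9 F9 F) = ω • (1 : Matrix F9 F9 F) := by
    have h : ∀ w z : F9, fld 15 (gC 0) (9 * e9 w + e9 z) = if w = z then 32 else 0 := by decide +kernel
    erw [(S F ω).coe_elt e9 (par_C F ω 0).1]
    ext w z
    simp only [dec, of_apply, h, apply_ite (phi4 ω), phi_0, phi_32, Matrix.smul_apply, Matrix.one_apply]
    simp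
  rw [Units.val_pow_eq_pow_val, h, smul_pow, one_pow, smul_mulVec, one_mulVec]

theorem colEq_iff {a b : ℕ} (ha : Ent 15 (9 * 9) ok4 a) (hb : Ent 15 (9 * 9) ok4 b) :
    colEq a b = true ↔ col F ω a = col F ω b := by
  simp only [colEq, force_eq, allLt_iff, nbeq_iff]
  constructor
  · intro h
    funext i
    exact congrArg (phi4 ω) (h _ (e9 i).2)
  · intro h i hi
    refine (S F ω).inj _ _ (ha.2 _ (by omega)) (hb.2 _ (by omega)) ?_
    simpa [col, dec, show ((e9 0 : Fin 9) : ℕ) = 0 from rfl] using congrFun h (e9.symm ⟨i, hi⟩)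

theorem fixOK_iff {a N : ℕ} (ha : (M F ω).V a) (hN : Ent 15 (9 * 9) ok4 N) :
    fixOK N a = true ↔ (M F ω).elt a ∈ lineStab (col F ω N) := by
  have h1 : ∀ k, colEq (mul a N) (mul (powN mul one (gC 0) k) N) = true ↔
      ((M F ω).elt a : Matrix F9 F9 F) *ᵥ col F ω N = ω ^ k • col F ω N := fun k => by
    obtain ⟨h2, h3⟩ := Model.powN_sound (par_C F ω 0).1 k
    rw [colEq_iff F ω ((S F ω).ent_mul _ _ ha.1 hN) ((S F ω).ent_mul _ _ h2.1 hN), ← mulVec_col F ω ha hN,
      ← mulVec_col F ω h2 hN, h3, w_mulVec]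
  rw [fixOK, Bool.not_eq_true', ← Bool.not_eq_true, allLt_iff]
  simp only [Bool.not_eq_true', ← Bool.not_eq_true, h1, not_forall, not_not]
  constructor
  · rintro ⟨k, -, h⟩
    exact ⟨_, pow_ne_zero k (w_ne F ω), h⟩
  · rintro ⟨c, hc, h⟩
    obtain ⟨k, hk, rfl⟩ := exists_pow F ω hc
    exact ⟨k, hk, h⟩

/-- The stabiliser of a line is a given maximal subgroup. -/
theorem inf_lineStab {gc el : ℕ → ℕ} {m n N nX nY b : ℕ} (hN : Ent 15 (9 * 9) ok4 N)
    (hg : (M F ω).Par (threeJ3 F ω) gc) (hL : Model.Lev (M := M F ω) ((M F ω).gen gc m) el n)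
    {tX tY tm : LT} {cY cX : ℕ → ℕ → ℕ} {cm : ℕ → ℕ}
    (h1 : band (tabOK mul one gc (m + 1) tX) (band (tabOK mul one gc (m + 1) tY)
      (band (allLt m (covOK mul gc (tabEl tY) el cY nY)) (band (blt 0 nY) (band (Nat.beq (tabEl tY 0) (gc m))
      (band (blt 0 nX) (Nat.beq (tabEl tX 0) one)))))) = true)
    (h2 : ∀ r < nX, dcOK mul (tabEl tX) (tabEl tY) el cX nX nY b r = true)
    (h3 : allLt nX (maxOK mul (tabEl tX) el (gc m) tm) = true)
    (h4 : allLt 9 (fun x => memDC mul (tabEl tX) el nX b (cm x) (gC x)) = true)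
    (h5 : band (allLt m fun x => fixOK N (gc x)) (!fixOK N (gc m)) = true) :
    threeJ3 F ω ⊓ lineStab (col F ω N) = (M F ω).gen gc m := by
  have hX := (hg.lets (m + 1)).tab ((band_iff _ _).1 h1).1
  have e : (M F ω).gen gc m ⊔ Subgroup.zpowers ((M F ω).elt (gc m)) = threeJ3 F ω := by
    rw [← Model.gen_succ]
    refine le_antisymm (hg.gen_le _) ?_
    rw [← gen9]
    exact genLt_le fun x hx => (Model.in_of_memDC hX hL.par (genLt_mono _ (Nat.le_succ m))
      ((allLt_iff _ _).1 h4 x hx)).2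
  rw [band_iff, allLt_iff] at h5
  refine inf_eq_of_maximal (hg.gen_le m) (genLt_le fun x hx => (fixOK_iff F ω (hg x).1 hN).1 (h5.1 x hx))
    (fun H a b => ?_) (hg m).2 fun h => ?_
  · rw [← e] at b ⊢
    exact Model.maximal (Model.dc_gen (hg.lets _) hL.par h1 h2) hL.par (fun r => (hX r).1) h3 H a b
  · rw [(fixOK_iff F ω (hg m).1 hN).2 h] at h5
    simp at h5

theorem relIndex_eq {K : Subgroup (GL F9 F)} (hK : K ≤ threeJ3 F ω) {n : ℕ} (h : n * Nat.card K = 150698880) :
    K.relIndex (threeJ3 F ω) = n := by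
  have h1 := card_eq_of_relIndex hK
  rw [card_G, ← h] at h1
  exact (Nat.eq_of_mul_eq_mul_right Nat.card_pos h1).symm

theorem ncard_lines : ((fun g : GL F9 F => F ∙ ((g : Matrix F9 F9 F) *ᵥ (Pi.single (0 : F9) (1 : F) : F9 → F))) ''
    threeJ3 F ω).ncard = 23256 := by
  have hK : (M F ω).Par (threeJ3 F ω) gK := par_of F ω (par_of_dc F ω K_s_ok) K_g_ok
  have hL := (Model.lev_bot (hK.lets 3) K0_ok).step (hK.lets 4) (by norm_num) K1_ok
  have h := inf_lineStab F ω (S F ω).ent_one hK hL KD_ok1 KD_ok2 KD_okm Km_ok (by decide +kernel)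
  have h1 : col F ω one = Pi.single 0 1 := by
    funext i
    rw [col, dm4, (S F ω).dec_one, one_apply, Pi.single_apply]
  rw [h1] at h
  rw [ncard_image_eq_relIndex fun a _ b _ => span_eq_iff a b _, ← Subgroup.inf_relIndex_left, h]
  exact relIndex_eq F ω (hK.gen_le 4) (by rw [hL.card])

include hF in
theorem ncard_iso : {v : F9 → F | ∑ z, v z ^ 3 = 0}.ncard = 130816 := by
  classical
  let χ : F → ℤ := fun x => if x = 0 then 1 else -1
  have h1 : ∀ (v : F9 → F) (s : Finset F9), (∑ z ∈ s, v z ^ 3 = 0 ∨ ∑ z ∈ s, v z ^ 3 = 1) ∧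
      ∏ z ∈ s, χ (v z) = χ (∑ z ∈ s, v z ^ 3) := fun v s => by
    induction s using Finset.induction_on with
    | empty => simp [χ]
    | insert a s ha ih =>
      rw [Finset.sum_insert ha, Finset.prod_insert ha, ih.2]
      have h2 : (1 : F) + 1 = 0 := by rw [← two_eq F]; norm_num
      by_cases h : v a = 0
      · simpa [h, χ] using ih.1
      · rcases ih.1 with h3 | h3 <;> simp [h3, cube_eq F h, χ, h, h2]
  have h2 : ∑ c : F, χ c = -2 := by
    rw [← Finset.add_sum_erase _ _ (Finset.mem_univ 0), Finset.sum_congr rfl (g := fun _ => (-1 : ℤ))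
      fun c hc => if_neg (Finset.ne_of_mem_erase hc)]
    simp [χ, hF.1]
  have h3 : ∑ v : F9 → F, χ (∑ z, v z ^ 3) = -512 := by
    rw [← Finset.sum_congr rfl fun v _ => (h1 v Finset.univ).2, ← Fintype.piFinset_univ, ← Finset.prod_univ_sum]
    simp [h2]
  have h4 := Finset.card_filter_add_card_filter_not (s := (Finset.univ : Finset (F9 → F)))
    (fun v => ∑ z, v z ^ 3 = 0)
  rw [Finset.card_univ, Fintype.card_fun, hF.1, show Fintype.card F9 = 9 from rfl] at h4
  simp only [χ, Finset.sum_ite, Finset.sum_const, nsmul_eq_mul] at h3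
  rw [← Set.coe_toFinset {v : F9 → F | ∑ z, v z ^ 3 = 0}, Set.ncard_coe_finset, Set.toFinset_ofPred]
  omega

theorem iso_orbit {v : F9 → F} (h0 : v ≠ 0) (hv : ∑ z, v z ^ 3 = 0) :
    ∃ g ∈ threeJ3 F ω, (g : Matrix F9 F9 F) *ᵥ col F ω N1 = v := by
  have hK : (M F ω).Par (threeJ3 F ω) gP := par_of F ω (par_of_dc F ω P_s_ok) P_g_ok
  have hL := (Model.lev_bot (hK.lets 3) P0_ok).step (hK.lets 5) (by norm_num) P1_ok
  have hN := (S F ω).of_ent N1 (by decide +kernel)
  have h := inf_lineStab F ω hN hK hL PD_ok1 PD_ok2 PD_okm Pm_ok (by decide +kernel)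
  have hc : ∀ i, col F ω N1 i = if i = (1, 0) ∨ i = (2, 0) then 1 else 0 := fun i => by
    have h : ∀ i : F9, fld 15 N1 (9 * e9 i + e9 0) = if i = (1, 0) ∨ i = (2, 0) then 1 else 0 := by decide +kernel
    simp only [col, dec, of_apply, h, apply_ite (phi4 ω), phi_0, phi_1]
  have hh : ∀ u : F9 → F, herm F u u = ∑ z, u z ^ 3 := fun u => Finset.sum_congr rfl fun _ _ => by ring
  have h1 : ∑ z, col F ω N1 z ^ 3 = 0 := by
    simp only [hc, ite_pow, one_pow, ne_eq, OfNat.ofNat_ne_zero, not_false_eq_true, zero_pow, Finset.sum_boole]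
    rw [show (Finset.univ.filter fun i : F9 => i = (1, 0) ∨ i = (2, 0)).card = 2 by decide]
    exact two_eq F
  have h2 : col F ω N1 (1, 0) = 1 := by rw [hc, if_pos (Or.inl rfl)]
  let f : GL F9 F → F9 → F := fun g => (g : Matrix F9 F9 F) *ᵥ col F ω N1
  have hf : ∀ L : Subgroup (GL F9 F), (f '' L).ncard = (vecStab (col F ω N1)).relIndex L := fun L =>
    ncard_image_eq_relIndex fun a _ b _ => by
      rw [eq_comm]; exact (mulVec_eq_iff a b _ _).symm
  have h3 : 3 ≤ (f '' (M F ω).gen gP 5).ncard := by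
    refine le_ncard_of_injOn (Set.toFinite _) (f := fun k => ω ^ k • col F ω N1) (fun a ha b hb e => ?_)
      fun k _ => ⟨_, Subgroup.pow_mem _ ((show gP 0 = gC 0 by decide +kernel) ▸ mem_genLt _ (by norm_num)) k,
        w_mulVec F ω k _⟩
    have e1 : ω ^ a = ω ^ b := by simpa [h2] using congrFun e (1, 0)
    have ho : orderOf ω = 3 := orderOf_eq_prime (w_cube F ω) fun e2 => by
      have := hω.1
      rw [e2] at this
      exact one_ne_zero (α := F) (by linear_combination this - two_eq F)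
    exact pow_injOn_Iio_orderOf (by rwa [ho]) (by rwa [ho]) e1
  have h4 : 130815 ≤ (f '' threeJ3 F ω).ncard := by
    have a1 : vecStab (col F ω N1) ⊓ threeJ3 F ω ≤ (M F ω).gen gP 5 := fun g hg =>
      h ▸ ⟨hg.2, 1, one_ne_zero, by rw [one_smul]; exact hg.1⟩
    rw [hf, ← Subgroup.inf_relIndex_right, ← Subgroup.relIndex_mul_relIndex _ _ _ a1 (hK.gen_le 5),
      relIndex_eq F ω (hK.gen_le 5) (n := 43605) (by rw [hL.card])]
    rw [hf, ← Subgroup.inf_relIndex_right] at h3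
    rw [← Subgroup.inf_relIndex_right, inf_assoc, inf_of_le_right (hK.gen_le 5)]
    omega
  have h5 : f '' threeJ3 F ω = {v : F9 → F | ∑ z, v z ^ 3 = 0} \ {0} := by
    refine Set.eq_of_subset_of_ncard_le ?_ ?_
    · rintro _ ⟨g, hg, rfl⟩
      refine ⟨(hh _).symm.trans ((le_UG F ω hg _ _).trans ((hh _).trans h1)), fun e => ?_⟩
      have e1 := (mulVec_eq_iff g 1 0 (col F ω N1)).2 (by rw [mulVec_zero]; exact e.symm)
      rw [mulVec_zero] at e1
      rw [← e1] at h2
      exact zero_ne_one h2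
    · rw [Set.ncard_sdiff_singleton_of_mem (by simp), ncard_iso]
      exact h4
  exact h5.ge ⟨hv, h0⟩

theorem det_eq_one (a : threeJ3 F ω) : ((a : GL F9 F) : Matrix F9 F9 F).det = 1 := by
  let d : threeJ3 F ω →* F := detMonoidHom.comp ((Units.coeHom _).comp (threeJ3 F ω).subtype)
  have h1 : t F ω ∈ d.ker := by
    have h := congrArg d (t_sq F ω)
    rw [map_pow, map_one] at h
    rw [MonoidHom.mem_ker]
    generalize d (t F ω) = x at h
    have h2 : (x - 1) ^ 2 = 0 := by linear_combination h + (1 - x) * two_eq F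
    exact sub_eq_zero.1 (pow_eq_zero_iff (by norm_num) |>.1 h2)
  rcases normal_cases F ω d.ker inferInstance with h | h
  · have h2 := orderOf_dvd_of_pow_eq_one (pow_three F ω (h h1))
    rw [orderOf_t] at h2
    exact absurd h2 (by norm_num)
  · have h2 : a ∈ d.ker := by rw [h]; trivial
    rw [MonoidHom.mem_ker] at h2
    simpa [d] using h2

theorem exists_SU : ∃ H : Subgroup (SU 9 F 2), Nonempty (threeJ3 F ω ≃* H) := by
  let f : threeJ3 F ω →* SU 9 F 2 :=
    { toFun := fun a => ⟨⟨reindex e9 e9 ((a : GL F9 F) : Matrix F9 F9 F), by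
          rw [det_reindex_self, det_eq_one]⟩, fun u v => by
        have h := le_UG F ω a.2 (u ∘ e9) (v ∘ e9)
        show hermForm 9 F 2 (reindex e9 e9 _ *ᵥ u) (reindex e9 e9 _ *ᵥ v) = _
        simp only [reindex_apply, submatrix_mulVec_equiv, hermForm, ← e9.sum_comp]
        simpa [herm] using h⟩
      map_one' := Subtype.ext (Subtype.ext (by simp))
      map_mul' := fun a b => Subtype.ext (Subtype.ext (submatrix_mul_equiv _ _ _ e9.symm _).symm) }
  have hf : Function.Injective f := fun a b e =>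
    Subtype.ext (Units.ext ((reindex e9 e9).injective (congrArg (fun x : SU 9 F 2 => x.1.1) e)))
  exact ⟨f.range, ⟨f.ofInjective hf⟩⟩

end Cfsg.Agent.Spor.MJ3
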